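import Cfsg.Agent.Components.CharP
import Cfsg.Agent.Components.PLayerBalance
import Cfsg.Prelude.Def_LocalEven

/-!
Maximal `p`-local subgroups of a group of local characteristic `p`: two of them meeting in an order divisible by
`p` give a primitive pair of characteristic `p`.
-/

set_option autoImplicit false
set_option linter.style.haveILetI false

namespace CfsgLib.LocalCharPair

open Subgroup CfsgLib.Components

variable {G : Type*} [Group G] [Finite G] {p : ℕ} [Fact p.Prime]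

/-- `M` is the normaliser of a nontrivial `p`-subgroup. -/
def IsLocal (p : ℕ) (M : Subgroup G) : Prop :=
  ∃ T : Subgroup G, IsPGroup p ↥T ∧ T ≠ ⊥ ∧ M = normalizer (T : Set G)

/-- `M` is a maximal `p`-local subgroup. -/
def IsMax (p : ℕ) (M : Subgroup G) : Prop :=
  IsLocal p M ∧ ∀ L : Subgroup G, IsLocal p L → M ≤ L → L = M

theorem exists_max {M : Subgroup G} (h : IsLocal p M) : ∃ L, IsMax p L ∧ M ≤ L := by
  obtain ⟨L, ⟨hL, hML⟩, hmax⟩ := Set.exists_max_image {L | IsLocal p L ∧ M ≤ L}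
    (fun L => Nat.card ↥L) (Set.toFinite _) ⟨M, h, le_rfl⟩
  exact ⟨L, ⟨hL, fun K hK hle => (eq_of_le_of_card_ge hle (hmax K ⟨hK, hML.trans hle⟩)).symm⟩, hML⟩

theorem IsMax.pCoreIn_ne_bot {M : Subgroup G} (hM : IsMax p M) : pCoreIn p M ≠ ⊥ := by
  obtain ⟨T, hT, hne, rfl⟩ := hM.1
  exact fun h => hne (le_bot_iff.1 (h ▸ le_pCoreIn le_normalizer le_rfl hT))

theorem IsMax.normalizer_eq {M A : Subgroup G} (hM : IsMax p M) (hA : IsPGroup p ↥A) (hne : A ≠ ⊥)
    (hn : M ≤ normalizer (A : Set G)) : normalizer (A : Set G) = M :=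
  hM.2 _ ⟨A, hA, hne, rfl⟩ hn

theorem IsMax.charP (hloc : Cfsg.IsOfLocalCharacteristic p G) {M : Subgroup G} (hM : IsMax p M) :
    centralizer (Cfsg.pCore p ↥M : Set ↥M) ≤ Cfsg.pCore p ↥M := by
  obtain ⟨T, hT, hne, rfl⟩ := hM.1
  exact hloc.2 T hT hne

theorem IsMax.le_normalizer_core {M : Subgroup G} (_hM : IsMax p M) :
    M ≤ normalizer (pCoreIn p M : Set G) :=
  le_normalizer.trans (normalizer_le_normalizer_pCoreIn p M)

theorem IsMax.map {M : Subgroup G} (hM : IsMax p M) (g : G) :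
    IsMax p (M.map (MulAut.conj g).toMonoidHom) := by
  have key : ∀ (g : G) (L : Subgroup G), IsLocal p L → IsLocal p (L.map (MulAut.conj g).toMonoidHom) := by
    rintro g L ⟨T, hT, hne, rfl⟩
    refine ⟨T.map (MulAut.conj g).toMonoidHom, hT.map _,
      fun h => hne ((map_eq_bot_iff_of_injective _ (MulAut.conj g).injective).1 h), ?_⟩
    exact map_equiv_normalizer_eq T (MulAut.conj g)
  refine ⟨key g M hM.1, fun L hL hle => ?_⟩
  have e : ∀ K : Subgroup G, (K.map (MulAut.conj g⁻¹).toMonoidHom).map (MulAut.conj g).toMonoidHom = K := by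
    intro K; rw [map_map]; convert map_id K; ext x; simp; group
  rw [← e L, hM.2 _ (key g⁻¹ L hL)]
  intro x hx
  exact ⟨g * x * g⁻¹, hle ⟨x, hx, rfl⟩, by simp [mul_assoc]⟩

/-- A normal subgroup of a maximal local has a nontrivial intersection with the `p`-core. -/
theorem IsMax.normalizer_le (hloc : Cfsg.IsOfLocalCharacteristic p G) {M A : Subgroup G} (hM : IsMax p M)
    (hA : A ≤ M) (hne : A ≠ ⊥) (hn : M ≤ normalizer (A : Set G)) : normalizer (A : Set G) ≤ M := by
  have h1 : pCoreIn p A ≠ ⊥ := by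
    intro h0
    have hn' : M ≤ normalizer ((A ⊓ pCoreIn p M : Subgroup G) : Set G) :=
      (le_inf hn hM.le_normalizer_core).trans (normalizer_inf_le _ _)
    have h2 : A ⊓ pCoreIn p M = ⊥ := le_bot_iff.1 (h0 ▸
      le_pCoreIn inf_le_left (hA.trans hn') ((pCoreIn_isPGroup p M).to_le inf_le_right))
    refine hne (le_bot_iff.1 fun a ha => ?_)
    have hac : (⟨a, hA ha⟩ : ↥M) ∈ centralizer (Cfsg.pCore p ↥M : Set ↥M) := by
      refine mem_centralizer_iff.2 fun y hy => Subtype.ext ?_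
      have hy' : (y : G) ∈ pCoreIn p M := ⟨y, hy, rfl⟩
      have : a * y * a⁻¹ * (y : G)⁻¹ ∈ A ⊓ pCoreIn p M := mem_inf.2 ⟨by
        rw [show a * y * a⁻¹ * (y : G)⁻¹ = a * ((y : G) * a⁻¹ * (y : G)⁻¹) by group]
        exact mul_mem ha ((mem_normalizer_iff.1 (hn y.2) a⁻¹).1 (inv_mem ha)),
        mul_mem ((mem_normalizer_iff.1 (hM.le_normalizer_core (hA ha)) _).1 hy') (inv_mem hy')⟩
      rw [h2, Subgroup.mem_bot] at this
      show (y : G) * a = a * y
      calc (y : G) * a = (a * y * a⁻¹ * (y : G)⁻¹) * ((y : G) * a) := by rw [this, one_mul]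
        _ = a * y := by group
    have := IsMax.charP hloc hM hac
    exact h2 ▸ mem_inf.2 ⟨ha, ⟨_, this, rfl⟩⟩
  refine (normalizer_le_normalizer_pCoreIn p A).trans (le_of_eq ?_)
  exact hM.normalizer_eq (pCoreIn_isPGroup p A) h1 (hn.trans (normalizer_le_normalizer_pCoreIn p A))

end CfsgLib.LocalCharPair
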